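import Mathlib
import Cfsg.Agent.Lib.Helper98.BG.SigmaDefs

/-!
SIGMA13 project (helper98), package E3 (helper86): `lemE3 : Cfsg.Agent.Lib.Helper98.BG13.LemE3`.

Pure group theory.  `X, Y ≤ C`, `X` an `r`-group, `Y` a `t`-group, and neither `r` nor `t`
divides `|C'|`.  Then some `C`-conjugate of `Y` centralizes `X`.

Proof.  Let `S` be a Sylow `r`-subgroup of `C` containing `X`.  By the Frattini argument (for
the normal subgroup `C' S`) `C = N_C(S) C'`, so `|C : N_C(S)|` divides `|C'|` and is prime to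
`t`; hence `Y` normalizes some Sylow `r`-subgroup, and a conjugate `Y^c` normalizes `S`.  Then
`[Y^c, S] ≤ S ∩ C' = 1`.
-/

set_option autoImplicit false

namespace Cfsg.Agent.Lib.Helper86.BG

open scoped commutatorElement

universe u

/-- If `N ⊔ D = ⊤` with `D` normal, then the index of `N` divides the order of `D`. -/
theorem e3_index_dvd_card {K : Type*} [Group K] [Finite K] (N D : Subgroup K) [D.Normal]
    (hsup : N ⊔ D = ⊤) : N.index ∣ Nat.card D := by
  have h1 : D.relIndex N = D.index := by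
    rw [← Subgroup.relIndex_sup_right, hsup, Subgroup.relIndex_top_right]
  have h2 : N.index * Nat.card N = Nat.card K := Subgroup.index_mul_card N
  have h3 : D.index * Nat.card D = Nat.card K := Subgroup.index_mul_card D
  have h4 : Nat.card (D ⊓ N : Subgroup K) * D.relIndex N = Nat.card N := by
    have := Subgroup.relIndex_mul_relIndex (⊥ : Subgroup K) (D ⊓ N) N bot_le inf_le_right
    rw [Subgroup.relIndex_bot_left, Subgroup.relIndex_bot_left, Subgroup.inf_relIndex_right]
      at this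
    exact this
  have h5 : D.index ≠ 0 := Subgroup.index_ne_zero_of_finite
  have h6 : D.index * (N.index * Nat.card (D ⊓ N : Subgroup K)) = D.index * Nat.card D := by
    rw [h3, ← h2, ← h4, h1]; ring
  exact Dvd.intro _ (Nat.eq_of_mul_eq_mul_left (Nat.pos_of_ne_zero h5) h6)

/-- Package E3 inside a group `K`: `X` an `r`-subgroup, `Y` a `t`-subgroup, `r, t ∤ |K'|`;
some conjugate of `Y` centralizes `X`. -/
theorem e3_aux {K : Type*} [Group K] [Finite K] (X Y : Subgroup K) (r t : ℕ)
    (hr : r.Prime) (ht : t.Prime) (hX : IsPGroup r X) (hY : IsPGroup t Y)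
    (hrd : ¬ r ∣ Nat.card (commutator K)) (htd : ¬ t ∣ Nat.card (commutator K)) :
    ∃ c : K, ∀ y ∈ Y, ∀ x ∈ X, (c * y * c⁻¹) * x = x * (c * y * c⁻¹) := by
  classical
  haveI : Fact r.Prime := ⟨hr⟩
  haveI : Fact t.Prime := ⟨ht⟩
  obtain ⟨S, hXS⟩ := hX.exists_le_sylow
  -- the number of Sylow `r`-subgroups divides `|K'|`
  have hsup : Subgroup.normalizer ((S : Subgroup K) : Set K) ⊔ commutator K = ⊤ := by
    haveI hn : ((S : Subgroup K) ⊔ commutator K).Normal := by
      constructor
      intro n hn g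
      have e : g * n * g⁻¹ = (g * n * g⁻¹ * n⁻¹) * n := by group
      rw [e]
      refine Subgroup.mul_mem _ (Subgroup.mem_sup_right ?_) hn
      rw [commutator_def]
      have : g * n * g⁻¹ * n⁻¹ = ⁅g, n⁆ := by rw [commutatorElement_def]
      rw [this]
      exact Subgroup.commutator_mem_commutator (Subgroup.mem_top g) (Subgroup.mem_top n)
    have h : Subgroup.normalizer ((S : Subgroup K) : Set K) ⊔
        ((S : Subgroup K) ⊔ commutator K) = ⊤ :=
      Sylow.normalizer_sup_eq_top' S (N := (S : Subgroup K) ⊔ commutator K) le_sup_left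
    rw [← sup_assoc, sup_eq_left.mpr (Subgroup.le_normalizer)] at h
    exact h
  have hcard : Nat.card (Sylow r K) ∣ Nat.card (commutator K) := by
    rw [Sylow.card_eq_index_normalizer S]
    exact e3_index_dvd_card _ _ hsup
  have htS : ¬ t ∣ Nat.card (Sylow r K) := fun h => htd (h.trans hcard)
  -- `Y` fixes a Sylow `r`-subgroup
  obtain ⟨S', hS'⟩ := hY.nonempty_fixed_point_of_prime_not_dvd_card (Sylow r K) htS
  obtain ⟨c, hc⟩ := MulAction.exists_smul_eq K S' S
  refine ⟨c, fun y hy x hx => ?_⟩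
  have hyS' : y • S' = S' := hS' ⟨y, hy⟩
  have hcy : c * y * c⁻¹ ∈ Subgroup.normalizer ((S : Subgroup K) : Set K) := by
    have h1 : (c * y * c⁻¹) • S = S := by
      rw [← hc, ← mul_smul]
      have e : c * y * c⁻¹ * c = c * y := by group
      rw [e, mul_smul, hyS']
    exact Sylow.smul_eq_iff_mem_normalizer.mp h1
  -- the commutator lies in `S ∩ K'`
  obtain ⟨z, hzdef⟩ : ∃ z : K, z = (c * y * c⁻¹) * x * (c * y * c⁻¹)⁻¹ * x⁻¹ := ⟨_, rfl⟩
  have hzS : z ∈ (S : Subgroup K) := by
    rw [hzdef]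
    exact Subgroup.mul_mem _ ((Subgroup.mem_normalizer_iff.mp hcy x).mp (hXS hx))
      (Subgroup.inv_mem _ (hXS hx))
  have hzD : z ∈ commutator K := by
    rw [hzdef, commutator_def]
    have : (c * y * c⁻¹) * x * (c * y * c⁻¹)⁻¹ * x⁻¹ = ⁅c * y * c⁻¹, x⁆ := by
      rw [commutatorElement_def]
    rw [this]
    exact Subgroup.commutator_mem_commutator (Subgroup.mem_top _) (Subgroup.mem_top _)
  have hz1 : z = 1 := by
    obtain ⟨k, hk⟩ := (IsPGroup.iff_orderOf.mp S.isPGroup') ⟨z, hzS⟩
    have hk' : orderOf z = r ^ k := by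
      rw [← hk]; exact (Subgroup.orderOf_mk z hzS).symm
    have hdvd : orderOf z ∣ Nat.card (commutator K) := by
      have := orderOf_dvd_natCard (⟨z, hzD⟩ : commutator K)
      rwa [Subgroup.orderOf_mk] at this
    rcases Nat.eq_zero_or_pos k with h0 | hpos
    · rw [h0, pow_zero] at hk'
      exact orderOf_eq_one_iff.mp hk'
    · exfalso
      apply hrd
      exact (dvd_pow_self r (Nat.pos_iff_ne_zero.mp hpos)).trans (hk' ▸ hdvd)
  have e : (c * y * c⁻¹) * x = z * (x * (c * y * c⁻¹)) := by rw [hzdef]; group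
  rw [e, hz1, one_mul]

/-- Package E3 of the SIGMA13 project. -/
theorem lemE3 : Cfsg.Agent.Lib.Helper98.BG13.LemE3.{u} := by
  intro G _ _ C X Y r t hr ht hXC hYC hX hY hrd htd
  have hcard : Nat.card (commutator ↥C) = Nat.card ↥⁅C, C⁆ := by
    rw [← Subgroup.map_subtype_commutator]
    exact (Nat.card_congr
      ((commutator ↥C).equivMapOfInjective C.subtype C.subtype_injective).toEquiv)
  have hX' : IsPGroup r (X.subgroupOf C) :=
    hX.comap_of_injective C.subtype C.subtype_injective
  have hY' : IsPGroup t (Y.subgroupOf C) :=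
    hY.comap_of_injective C.subtype C.subtype_injective
  obtain ⟨c, hc⟩ := e3_aux (X.subgroupOf C) (Y.subgroupOf C) r t hr ht hX' hY'
    (by rw [hcard]; exact hrd) (by rw [hcard]; exact htd)
  refine ⟨(c : G), c.2, ?_⟩
  rintro _ ⟨y, hy, rfl⟩
  rw [Subgroup.mem_centralizer_iff]
  intro x hx
  have h := hc ⟨y, hYC hy⟩ (Subgroup.mem_subgroupOf.mpr hy) ⟨x, hXC hx⟩
    (Subgroup.mem_subgroupOf.mpr hx)
  have h' := congrArg (Subtype.val) h
  simp only [Subgroup.coe_mul, Subgroup.coe_inv] at h'
  simp only [MulEquiv.coe_toMonoidHom, MulAut.conj_apply]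
  exact h'.symm

end Cfsg.Agent.Lib.Helper86.BG
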